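import Mathlib
import Cfsg.Agent.Lib.Helper70.HH.S3789Defs
import Cfsg.Agent.Lib.Helper32.TBWeight

/-!
# S3789, package (P2) `LemW` (helper9)
-/

set_option autoImplicit false

namespace Cfsg.Agent.Lib.Helper9.HH89

open Module Cfsg.Agent.Lib.Helper70.HH89 Cfsg.Agent.Lib.Helper32

open scoped commutatorElement

universe u v w

section Grp

variable {H : Type u} [Group H]

theorem h9w_frat_le (Q : Subgroup H) : frat Q ≤ Q := by
  rintro _ ⟨c, _, rfl⟩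
  exact c.2

theorem h9w_frat_conj_mem (Q : Subgroup H) (b : H) (hb : ∀ g ∈ Q, b * g * b⁻¹ ∈ Q)
    (hb' : ∀ g ∈ Q, b⁻¹ * g * b ∈ Q) : ∀ c ∈ frat Q, b * c * b⁻¹ ∈ frat Q := by
  rintro _ ⟨c, hc, rfl⟩
  let φ : ↥Q ≃* ↥Q :=
    { toFun := fun g => ⟨b * g.1 * b⁻¹, hb g.1 g.2⟩
      invFun := fun g => ⟨b⁻¹ * g.1 * b, hb' g.1 g.2⟩
      left_inv := fun g => Subtype.ext (by simp [mul_assoc])
      right_inv := fun g => Subtype.ext (by simp [mul_assoc])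
      map_mul' := fun g h => Subtype.ext (by simp [mul_assoc]) }
  have hchar : (frattini ↥Q).Characteristic := frattini_characteristic
  have h1 : φ c ∈ frattini ↥Q := by
    have h2 := Subgroup.characteristic_iff_map_eq.1 hchar φ
    rw [← h2]
    exact Subgroup.mem_map_of_mem _ hc
  exact ⟨φ c, h1, rfl⟩

end Grp

section Lin

variable {F : Type w} [Field F] {V : Type v} [AddCommGroup V] [Module F V]

theorem h9w_three_wt (T T' : Module.End F V) (x₀ x₁ x₂ : V) (α₀ α₁ α₂ β₀ β₂ : F)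
    (h : x₂ - x₁ - x₁ + x₀ = 0) (hT0 : T x₀ = α₀ • x₀) (hT1 : T x₁ = α₁ • x₁)
    (hT2 : T x₂ = α₂ • x₂) (hT'0 : T' x₀ = β₀ • x₀) (hT'2 : T' x₂ = β₂ • x₂)
    (h01 : α₀ ≠ α₁) (h02 : β₀ ≠ β₂) : x₀ = 0 := by
  have h1 : α₂ • x₂ - α₁ • x₁ - α₁ • x₁ + α₀ • x₀ = 0 := by
    have := congrArg T h
    rw [map_add, map_sub, map_sub, hT0, hT1, hT2, map_zero] at this
    exact this
  have h2 : (α₂ - α₁) • x₂ + (α₀ - α₁) • x₀ = 0 := by
    have h3 : α₁ • (x₂ - x₁ - x₁ + x₀) = 0 := by rw [h, smul_zero]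
    have : (α₂ - α₁) • x₂ + (α₀ - α₁) • x₀ =
        (α₂ • x₂ - α₁ • x₁ - α₁ • x₁ + α₀ • x₀) - α₁ • (x₂ - x₁ - x₁ + x₀) := by module
    rw [this, h1, h3, sub_zero]
  have h4 : ((α₂ - α₁) * β₂) • x₂ + ((α₀ - α₁) * β₀) • x₀ = 0 := by
    have := congrArg T' h2
    rw [map_add, map_smul, map_smul, hT'0, hT'2, map_zero, smul_smul, smul_smul] at this
    exact this
  have h5 : ((α₀ - α₁) * (β₀ - β₂)) • x₀ = 0 := by
    have h6 : β₂ • ((α₂ - α₁) • x₂ + (α₀ - α₁) • x₀) = 0 := by rw [h2, smul_zero]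
    have : ((α₀ - α₁) * (β₀ - β₂)) • x₀ =
        (((α₂ - α₁) * β₂) • x₂ + ((α₀ - α₁) * β₀) • x₀) -
          β₂ • ((α₂ - α₁) • x₂ + (α₀ - α₁) • x₀) := by module
    rw [this, h4, h6, sub_zero]
  rcases smul_eq_zero.1 h5 with h | h
  · rcases mul_eq_zero.1 h with h' | h'
    · exact absurd (sub_eq_zero.1 h') h01
    · exact absurd (sub_eq_zero.1 h') h02
  · exact h

end Lin

section Rep

variable {F : Type w} [Field F] {H : Type u} [Group H] {V : Type v} [AddCommGroup V]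
  [Module F V] (ρ : Representation F H V)

theorem h9w_sum_mul (N : Subgroup H) [Fintype N] (c : H) (hc : c ∈ N) :
    (∑ d : N, ρ d.1) * ρ c = ∑ d : N, ρ d.1 := by
  rw [Finset.sum_mul, ← Equiv.sum_comp (Equiv.mulRight (⟨c, hc⟩ : N)) (fun d : N => ρ d.1)]
  apply Finset.sum_congr rfl
  intro d _
  rw [← map_mul]
  rfl

theorem h9w_mul_sum (N : Subgroup H) [Fintype N] (g : H) (hg : ∀ c ∈ N, g * c * g⁻¹ ∈ N)
    (hg' : ∀ c ∈ N, g⁻¹ * c * g ∈ N) :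
    ρ g * (∑ d : N, ρ d.1) = (∑ d : N, ρ d.1) * ρ g := by
  let φ : N ≃ N :=
    { toFun := fun d => ⟨g * d.1 * g⁻¹, hg d.1 d.2⟩
      invFun := fun d => ⟨g⁻¹ * d.1 * g, hg' d.1 d.2⟩
      left_inv := fun d => Subtype.ext (by simp [mul_assoc])
      right_inv := fun d => Subtype.ext (by simp [mul_assoc]) }
  rw [Finset.mul_sum, Finset.sum_mul, ← Equiv.sum_comp φ (fun d : N => ρ d.1 * ρ g)]
  apply Finset.sum_congr rfl
  intro d _
  show ρ g * ρ d.1 = ρ (g * d.1 * g⁻¹) * ρ g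
  rw [← map_mul, ← map_mul]
  congr 1
  group

theorem h9w_exists_weight [IsAlgClosed F] [FiniteDimensional F V] (A : Subgroup H)
    (hA : ∀ a ∈ A, ∀ b ∈ A, a * b = b * a) (W : Submodule F V) (hW : W ≠ ⊥)
    (hinv : ∀ a ∈ A, W.map (ρ a) ≤ W) : ∃ lam : H → F, W ⊓ wtSpace ρ A lam ≠ ⊥ := by
  classical
  have hle : ∀ a : A, W ≤ W.comap ((ρ.comp A.subtype) a) := by
    intro a w hw
    exact hinv a.1 a.2 (Submodule.mem_map_of_mem hw)
  let ρW : Representation F A W := Representation.subrepresentation (ρ.comp A.subtype) W hle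
  have hρW : ∀ (a : A) (w : W), ((ρW a w : W) : V) = ρ a.1 (w : V) := fun a w => rfl
  haveI : Nontrivial W := Submodule.nontrivial_iff_ne_bot.2 hW
  obtain ⟨lam, hlam⟩ := exists_wtSpace_ne_bot ρW (⊤ : Subgroup A)
    (fun a _ b _ => Subtype.ext (hA a.1 a.2 b.1 b.2))
  obtain ⟨w, hw, hw0⟩ := Submodule.exists_mem_ne_zero_of_ne_bot hlam
  have hex : ∀ a : H, ∃ c : F, a ∈ A → ρ a (w : V) = c • (w : V) := by
    intro a
    by_cases ha : a ∈ A
    · refine ⟨lam ⟨a, ha⟩, fun _ => ?_⟩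
      have h1 := hw ⟨a, ha⟩ (Subgroup.mem_top _)
      have h2 := congrArg Subtype.val h1
      rw [hρW] at h2
      exact h2
    · exact ⟨0, fun h => absurd h ha⟩
  choose ν hν using hex
  refine ⟨ν, ?_⟩
  intro hb
  have hmem : (w : V) ∈ W ⊓ wtSpace ρ A ν := ⟨w.2, fun a ha => hν a ha⟩
  rw [hb, Submodule.mem_bot] at hmem
  exact hw0 (Subtype.ext hmem)

theorem h9w_ker_prop [Finite H] {p q : ℕ} [Fact p.Prime] [Fact q.Prime] [CharP F p] (hqp : q ≠ p)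
    (Q : Subgroup H) (hQ : IsPGroup q Q) [Fintype ↥⁅Q, Q⁆] (U : Submodule F V)
    (hU : U ≤ LinearMap.ker (∑ d : ↥⁅Q, Q⁆, ρ d.1)) (hU0 : U ≠ ⊥)
    (hUQ : ∀ g ∈ Q, U.map (ρ g) ≤ U) :
    ∃ a ∈ Q, ∃ b ∈ Q, ∃ u ∈ U, ρ (a * b) u ≠ ρ (b * a) u := by
  by_contra hcon
  push Not at hcon
  let S : Subgroup H :=
    { carrier := {x | ∀ u ∈ U, ρ x u = u}
      mul_mem' := by
        intro x y hx hy u hu
        rw [map_mul, Module.End.mul_apply, hy u hu, hx u hu]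
      one_mem' := by
        intro u _
        rw [map_one, Module.End.one_apply]
      inv_mem' := by
        intro x hx u hu
        have h1 : ρ x⁻¹ (ρ x u) = u := by
          rw [← Module.End.mul_apply, ← map_mul, inv_mul_cancel, map_one, Module.End.one_apply]
        rw [hx u hu] at h1
        exact h1 }
  have hS : ⁅Q, Q⁆ ≤ S := by
    rw [Subgroup.commutator_le]
    intro a ha b hb u hu
    have h1 : ρ (b * a)⁻¹ u ∈ U := hUQ _ (Q.inv_mem (Q.mul_mem hb ha)) ⟨u, hu, rfl⟩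
    have h2 := hcon a ha b hb _ h1
    rw [← Module.End.mul_apply, ← Module.End.mul_apply, ← map_mul, ← map_mul, mul_inv_cancel,
      map_one, Module.End.one_apply] at h2
    rw [← h2]
    congr 2
    rw [commutatorElement_def]
    group
  have hQQ : ⁅Q, Q⁆ ≤ Q :=
    Subgroup.commutator_le.2 (fun a ha b hb =>
      Q.mul_mem (Q.mul_mem (Q.mul_mem ha hb) (Q.inv_mem ha)) (Q.inv_mem hb))
  have hne : (Nat.card ↥⁅Q, Q⁆ : F) ≠ 0 := by
    obtain ⟨n, hn⟩ := (hQ.to_le hQQ).exists_card_eq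
    rw [hn]
    intro h0
    rw [CharP.cast_eq_zero_iff F p] at h0
    have h1 := (Fact.out : p.Prime).dvd_of_dvd_pow h0
    exact hqp ((Nat.prime_dvd_prime_iff_eq Fact.out Fact.out).1 h1).symm
  apply hU0
  rw [eq_bot_iff]
  intro u hu
  have h1 : (∑ d : ↥⁅Q, Q⁆, ρ d.1) u = 0 := hU hu
  rw [LinearMap.sum_apply, Finset.sum_congr rfl (fun d _ => hS d.2 u hu), Finset.sum_const,
    Finset.card_univ, ← Nat.card_eq_fintype_card, ← Nat.cast_smul_eq_nsmul F] at h1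
  rcases smul_eq_zero.1 h1 with h | h
  · exact absurd h hne
  · exact (Submodule.mem_bot F).2 h

end Rep

/-- Package (P2) of S3789. -/
theorem lemW : LemW.{u, v, w} := by
  intro p q _ _ F _ _ _ H _ _ V _ _ _ ρ B Q z hp2 hqp hB hQ hBQ hzc hcen hgen hquad hnc
  classical
  haveI : Fintype ↥⁅Q, Q⁆ := Fintype.ofFinite _
  have hnorm : ∀ g : H, (∀ x ∈ Q, g * x * g⁻¹ ∈ Q) → ∀ c ∈ ⁅Q, Q⁆, g * c * g⁻¹ ∈ ⁅Q, Q⁆ := by
    intro g hg c hc
    have h1 : (⁅Q, Q⁆).map (MulAut.conj g).toMonoidHom ≤ ⁅Q, Q⁆ := by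
      rw [Subgroup.map_commutator]
      apply Subgroup.commutator_mono <;>
      · rintro _ ⟨x, hx, rfl⟩
        exact hg x hx
    exact h1 ⟨c, hc, rfl⟩
  have hKinv : ∀ g : H, (∀ x ∈ Q, g * x * g⁻¹ ∈ Q) → (∀ x ∈ Q, g⁻¹ * x * g ∈ Q) →
      (LinearMap.ker (∑ d : ↥⁅Q, Q⁆, ρ d.1)).map (ρ g) ≤ LinearMap.ker (∑ d : ↥⁅Q, Q⁆, ρ d.1) := by
    intro g hg hg'
    rintro _ ⟨v, hv, rfl⟩
    have hcomm := h9w_mul_sum ρ ⁅Q, Q⁆ g (hnorm g hg)
      (fun c hc => by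
        have h := hnorm g⁻¹ (fun x hx => by simpa using hg' x hx) c hc
        simpa using h)
    have hv' : (∑ d : ↥⁅Q, Q⁆, ρ d.1) v = 0 := hv
    show (∑ d : ↥⁅Q, Q⁆, ρ d.1) (ρ g v) = 0
    rw [← Module.End.mul_apply, ← hcomm, Module.End.mul_apply, hv', map_zero]
  have hKQ : ∀ g ∈ Q, (LinearMap.ker (∑ d : ↥⁅Q, Q⁆, ρ d.1)).map (ρ g) ≤
      LinearMap.ker (∑ d : ↥⁅Q, Q⁆, ρ d.1) := fun g hg =>
    hKinv g (fun x hx => Q.mul_mem (Q.mul_mem hg hx) (Q.inv_mem hg))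
      (fun x hx => Q.mul_mem (Q.mul_mem (Q.inv_mem hg) hx) hg)
  have hBQ' : ∀ b ∈ B, ∀ x ∈ Q, b⁻¹ * x * b ∈ Q := fun b hb x hx => by
    have h := hBQ b⁻¹ (B.inv_mem hb) x hx
    simpa using h
  have hKB : ∀ b ∈ B, (LinearMap.ker (∑ d : ↥⁅Q, Q⁆, ρ d.1)).map (ρ b) ≤
      LinearMap.ker (∑ d : ↥⁅Q, Q⁆, ρ d.1) := fun b hb => hKinv b (hBQ b hb) (hBQ' b hb)
  have hK0 : LinearMap.ker (∑ d : ↥⁅Q, Q⁆, ρ d.1) ≠ ⊥ := by
    intro hbot
    obtain ⟨a, ha, b, hb, hab⟩ := hnc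
    apply hab
    have hc : ⁅a, b⁆ ∈ ⁅Q, Q⁆ := Subgroup.commutator_mem_commutator ha hb
    have h1 : ρ ⁅a, b⁆ = 1 := by
      ext v
      have h2 : ρ ⁅a, b⁆ v - v ∈ LinearMap.ker (∑ d : ↥⁅Q, Q⁆, ρ d.1) := by
        rw [LinearMap.mem_ker, map_sub, ← Module.End.mul_apply, h9w_sum_mul ρ ⁅Q, Q⁆ _ hc, sub_self]
      rw [hbot, Submodule.mem_bot, sub_eq_zero] at h2
      rw [h2, Module.End.one_apply]
    have h3 : a * b = ⁅a, b⁆ * (b * a) := by
      rw [commutatorElement_def]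
      group
    rw [h3, map_mul, h1, one_mul]
  have hP : ∀ U : Submodule F V, U ≠ ⊥ → U ≤ LinearMap.ker (∑ d : ↥⁅Q, Q⁆, ρ d.1) →
      (∀ g ∈ Q, U.map (ρ g) ≤ U) → ∃ a ∈ Q, ∃ b ∈ Q, ∃ u ∈ U, ρ (a * b) u ≠ ρ (b * a) u :=
    fun U hU0 hUK hUQ => h9w_ker_prop ρ hqp Q hQ U hUK hU0 hUQ
  generalize LinearMap.ker (∑ d : ↥⁅Q, Q⁆, ρ d.1) = K at hKQ hKB hK0 hP
  -- a minimal nonzero `(Q, B)`-invariant subspace of `K`
  have hwf : WellFounded ((· < ·) : Submodule F V → Submodule F V → Prop) := wellFounded_lt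
  let s : Set (Submodule F V) :=
    {U | U ≠ ⊥ ∧ U ≤ K ∧ (∀ g ∈ Q, U.map (ρ g) ≤ U) ∧ (∀ b ∈ B, U.map (ρ b) ≤ U)}
  have hs : s.Nonempty := ⟨K, hK0, le_refl K, hKQ, hKB⟩
  obtain ⟨hW0, hWK, hWQ, hWB⟩ := hwf.min_mem s hs
  have hmin : ∀ U : Submodule F V, U ∈ s → U ≤ hwf.min s hs → U = hwf.min s hs := by
    intro U hU hUW
    by_contra hne
    exact hwf.not_lt_min s hU (lt_of_le_of_ne hUW hne)
  generalize hwf.min s hs = W at hW0 hWK hWQ hWB hmin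
  -- a weight of `Z = Φ(Q)` on `W`
  have hZQ : frat Q ≤ Q := h9w_frat_le Q
  have hZab : ∀ a ∈ frat Q, ∀ b ∈ frat Q, a * b = b * a := fun a ha b hb => hcen a ha b (hZQ hb)
  obtain ⟨ν, hν⟩ := h9w_exists_weight ρ (frat Q) hZab W hW0 (fun a ha => hWQ a (hZQ ha))
  have hWνW : W ⊓ wtSpace ρ (frat Q) ν ≤ W := inf_le_left
  have hBZ : ∀ b ∈ B, ∀ c ∈ frat Q, b * c * b⁻¹ ∈ frat Q := fun b hb =>
    h9w_frat_conj_mem Q b (hBQ b hb) (hBQ' b hb)
  have hBZ' : ∀ b ∈ B, ∀ c ∈ frat Q, b⁻¹ * c * b ∈ frat Q := fun b hb c hc => by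
    have h := hBZ b⁻¹ (B.inv_mem hb) c hc
    simpa using h
  have hWνQ : ∀ g ∈ Q, (W ⊓ wtSpace ρ (frat Q) ν).map (ρ g) ≤ W ⊓ wtSpace ρ (frat Q) ν := by
    intro g hg
    rintro _ ⟨w, hw, rfl⟩
    refine ⟨hWQ g hg ⟨w, hw.1, rfl⟩, ?_⟩
    intro a ha
    have h1 : a * g = g * a := hcen a ha g hg
    rw [← Module.End.mul_apply, ← map_mul, h1, map_mul, Module.End.mul_apply, hw.2 a ha, map_smul]
  -- the weight is `B`-stable
  have hclaim : ∀ b ∈ B, ∀ a ∈ frat Q, ν (b⁻¹ * a * b) = ν a := by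
    by_contra hcon
    push Not at hcon
    obtain ⟨b, hb, a₀, ha₀, hne₀⟩ := hcon
    have hF1 : ∃ a' ∈ frat Q, ν (b⁻¹ * (b⁻¹ * a' * b) * b) ≠ ν a' := by
      by_contra hcon2
      push Not at hcon2
      have hpow : ∀ k : ℕ, ∀ a ∈ frat Q, ν ((b ^ (2 * k))⁻¹ * a * b ^ (2 * k)) = ν a := by
        intro k
        induction k with
        | zero => intro a _; simp
        | succ k ih =>
          intro a ha
          have h1 : (b ^ (2 * (k + 1)))⁻¹ * a * b ^ (2 * (k + 1)) =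
              b⁻¹ * (b⁻¹ * ((b ^ (2 * k))⁻¹ * a * b ^ (2 * k)) * b) * b := by
            have h0 : 2 * (k + 1) = 2 * k + 1 + 1 := by ring
            rw [h0, pow_succ, pow_succ]
            group
          have h2 : (b ^ (2 * k))⁻¹ * a * b ^ (2 * k) ∈ frat Q := hBZ' _ (B.pow_mem hb _) a ha
          rw [h1, hcon2 _ h2, ih a ha]
      obtain ⟨j, hj⟩ := hB ⟨b, hb⟩
      have hbj : b ^ (p ^ j) = 1 := by
        have h := congrArg Subtype.val hj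
        simpa using h
      have hodd : Odd (p ^ j) := ((Fact.out : p.Prime).odd_of_ne_two hp2).pow
      obtain ⟨m, hm⟩ := hodd
      have hb2 : b ^ (2 * (m + 1)) = b := by
        have h0 : 2 * (m + 1) = p ^ j + 1 := by omega
        rw [h0, pow_succ, hbj, one_mul]
      have h := hpow (m + 1) a₀ ha₀
      rw [hb2] at h
      exact hne₀ h
    obtain ⟨a', ha', hne'⟩ := hF1
    have hztriv : ∀ w ∈ W ⊓ wtSpace ρ (frat Q) ν, ρ z w = w := by
      intro w hw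
      have hq := congrArg (fun T : Module.End F V => T w) (hquad b hb)
      simp only [Module.End.mul_apply, LinearMap.sub_apply, Module.End.one_apply,
        LinearMap.zero_apply, map_sub] at hq
      have hz : ∀ a ∈ frat Q, ∀ v : V, ρ a (ρ z v) = ρ z (ρ a v) := by
        intro a ha v
        rw [← Module.End.mul_apply, ← Module.End.mul_apply, ← map_mul, ← map_mul, hzc a ha]
      have hy0 : ∀ a ∈ frat Q, ρ a w = ν a • w := hw.2
      have hy1 : ∀ a ∈ frat Q, ρ a (ρ b w) = ν (b⁻¹ * a * b) • ρ b w := by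
        intro a ha
        rw [rep_conj_apply ρ b a w, hy0 _ (hBZ' b hb a ha), map_smul]
      have hy2 : ∀ a ∈ frat Q,
          ρ a (ρ b (ρ b w)) = ν (b⁻¹ * (b⁻¹ * a * b) * b) • ρ b (ρ b w) := by
        intro a ha
        rw [rep_conj_apply ρ b a (ρ b w), hy1 _ (hBZ' b hb a ha), map_smul]
      have hx0 : ∀ a ∈ frat Q, ρ a (ρ z w - w) = ν a • (ρ z w - w) := by
        intro a ha
        rw [map_sub, hz a ha, hy0 a ha, map_smul, smul_sub]
      have hx1 : ∀ a ∈ frat Q,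
          ρ a (ρ z (ρ b w) - ρ b w) = ν (b⁻¹ * a * b) • (ρ z (ρ b w) - ρ b w) := by
        intro a ha
        rw [map_sub, hz a ha, hy1 a ha, map_smul, smul_sub]
      have hx2 : ∀ a ∈ frat Q, ρ a (ρ z (ρ b (ρ b w)) - ρ b (ρ b w)) =
          ν (b⁻¹ * (b⁻¹ * a * b) * b) • (ρ z (ρ b (ρ b w)) - ρ b (ρ b w)) := by
        intro a ha
        rw [map_sub, hz a ha, hy2 a ha, map_smul, smul_sub]
      have hrel : (ρ z (ρ b (ρ b w)) - ρ b (ρ b w)) - (ρ z (ρ b w) - ρ b w) -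
          (ρ z (ρ b w) - ρ b w) + (ρ z w - w) = 0 := by
        rw [← hq]
        abel
      have h := h9w_three_wt (ρ a₀) (ρ a') _ _ _ _ _ _ _ _ hrel (hx0 a₀ ha₀) (hx1 a₀ ha₀)
        (hx2 a₀ ha₀) (hx0 a' ha') (hx2 a' ha') (Ne.symm hne₀) (Ne.symm hne')
      exact sub_eq_zero.1 h
    let S : Subgroup H :=
      { carrier := {x | ∀ w ∈ W ⊓ wtSpace ρ (frat Q) ν, ρ x w = w}
        mul_mem' := by
          intro x y hx hy w hw
          rw [map_mul, Module.End.mul_apply, hy w hw, hx w hw]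
        one_mem' := by
          intro w _
          rw [map_one, Module.End.one_apply]
        inv_mem' := by
          intro x hx w hw
          have h1 : ρ x⁻¹ (ρ x w) = w := by
            rw [← Module.End.mul_apply, ← map_mul, inv_mul_cancel, map_one, Module.End.one_apply]
          rw [hx w hw] at h1
          exact h1 }
    have hzS : z ∈ S := hztriv
    have hQS : Q ≤ S := by
      refine le_trans hgen ((Subgroup.closure_le S).2 ?_)
      rintro _ ⟨g, hg, rfl⟩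
      intro w hw
      have h1 : ρ g⁻¹ w ∈ W ⊓ wtSpace ρ (frat Q) ν := hWνQ g⁻¹ (Q.inv_mem hg) ⟨w, hw, rfl⟩
      have h2 : ρ z⁻¹ (ρ g⁻¹ w) = ρ g⁻¹ w := S.inv_mem hzS _ h1
      rw [map_mul, map_mul, map_mul, Module.End.mul_apply, Module.End.mul_apply,
        Module.End.mul_apply, h2, ← Module.End.mul_apply (ρ g), ← map_mul, mul_inv_cancel,
        map_one, Module.End.one_apply]
      exact hztriv w hw
    obtain ⟨a, ha, c, hc, u, hu, hne⟩ := hP _ hν (le_trans hWνW hWK) hWνQ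
    apply hne
    rw [hQS (Q.mul_mem ha hc) u hu, hQS (Q.mul_mem hc ha) u hu]
  have hWνB : ∀ b ∈ B, (W ⊓ wtSpace ρ (frat Q) ν).map (ρ b) ≤ W ⊓ wtSpace ρ (frat Q) ν := by
    intro b hb
    rintro _ ⟨w, hw, rfl⟩
    refine ⟨hWB b hb ⟨w, hw.1, rfl⟩, ?_⟩
    intro a ha
    rw [rep_conj_apply ρ b a w, hw.2 _ (hBZ' b hb a ha), map_smul, hclaim b hb a ha]
  have hWeq : W ⊓ wtSpace ρ (frat Q) ν = W :=
    hmin _ ⟨hν, le_trans hWνW hWK, hWνQ, hWνB⟩ hWνW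
  refine ⟨W, hW0, hWQ, hWB, ?_, ?_⟩
  · intro c hc
    refine ⟨ν c, fun w hw => ?_⟩
    have h : w ∈ W ⊓ wtSpace ρ (frat Q) ν := by
      rw [hWeq]
      exact hw
    exact h.2 c hc
  · intro U hU0 hUW hUQ
    exact hP U hU0 (le_trans hUW hWK) hUQ

end Cfsg.Agent.Lib.Helper9.HH89
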